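import Cfsg.Agent.H291.NR.Core
import Cfsg.Agent.H291.SR.Mathieu
import Cfsg.Agent.H393.Iso.Mathieu
import Cfsg.Agent.H547.SelfCent.Base

/-!
# Disconnected prime graphs (S3440): the Mathieu groups
-/

set_option autoImplicit false

namespace Cfsg.Agent.H291.NR

open Subgroup Cfsg Cfsg.Agent.H389.NR
open Cfsg.Agent.H291.SR.Mathieu

/-- the form used for the sporadic groups -/
theorem disc_self {G : Type*} [Group G] {N : ℕ} (hN : Nat.card G = N) {r : ℕ} {x : G} (hx : orderOf x = r)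
    (hc : Nat.card (centralizer ({x} : Set G)) = r) (h : (r.Prime ∧ N ≠ 0 ∧ 2 ∣ N ∧ 2 ≠ r) := by norm_num) :
    Disc G := by
  obtain ⟨h1, h2, h3, h4⟩ := h
  have : Finite G := Nat.finite_of_card_ne_zero (by rw [hN]; exact h2)
  exact disc_of_self h1 hx hc Nat.prime_two h4 (hN ▸ h3)

theorem disc_m24 {L : Type*} [Group L] (h : Spor.IsoM24 L) : Disc L := by
  obtain ⟨e⟩ := h
  refine disc_congr e.symm ?_
  have ho : orderOf (⟨T, T_mem⟩ : M24) = 23 := orderOf_sub T_mem (by norm_num) T_pow T_ne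
  exact disc_self (r := 23) Cfsg.Agent.SporadicA.M24Trans.card_M24 ho ((SR.Mathieu.card_centralizer (cyc23 T_mem)).trans ho)

theorem disc_m23 {L : Type*} [Group L] (h : Spor.IsoM23 L) : Disc L := by
  obtain ⟨e⟩ := h
  refine disc_congr e.symm ?_
  have ho : orderOf (⟨T, T_mem23⟩ : Spor.M23) = 23 := orderOf_sub T_mem23 (by norm_num) T_pow T_ne
  exact disc_self (r := 23) Cfsg.Agent.SporadicA.MathieuRecog.card_M23 ho ((SR.Mathieu.card_centralizer (cyc23 T_mem23)).trans ho)

theorem disc_m12 {L : Type*} [Group L] (h : Spor.IsoM12 L) : Disc L := by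
  obtain ⟨e⟩ := h
  refine disc_congr e.symm ?_
  have ho : orderOf (⟨M, M_mem12⟩ : Spor.M12) = 11 := orderOf_sub M_mem12 (by norm_num) M_pow M_ne
  exact disc_self (r := 11) Cfsg.Agent.MTwelveType.SylowModel.card_M12 ho ((SR.Mathieu.card_centralizer (cyc11 le_rfl M_mem12)).trans ho)

theorem disc_m11 {L : Type*} [Group L] (h : Spor.IsoM11 L) : Disc L := by
  obtain ⟨e⟩ := h
  refine disc_congr e.symm ?_
  have ho : orderOf (⟨M, M_mem11⟩ : Spor.M11) = 11 := orderOf_sub M_mem11 (by norm_num) M_pow M_ne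
  exact disc_self (r := 11) Cfsg.Agent.H994.TwoGen.M11.card_M11 ho ((SR.Mathieu.card_centralizer (cyc11 inf_le_left M_mem11)).trans ho)

/-! ### `M22` -/

theorem M_mem22 : M ∈ Spor.M22 := by
  refine Subgroup.mem_inf.2 ⟨Subgroup.mem_inf.2 ⟨M_mem, ?_⟩, ?_⟩
  · rw [MulAction.mem_stabilizer_iff]
    show M none = none
    decide +kernel
  · rw [MulAction.mem_stabilizer_iff]
    show M (some 0) = some 0
    decide +kernel

theorem M_orb : ∀ p : GolayPt, p = none ∨ p = some 0 ∨ (∃ k : ℕ, p = (M ^ k) (some 1)) ∨ ∃ k : ℕ, p = (M ^ k) (some 5) := by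
  have h : ∀ p : GolayPt, p = none ∨ p = some 0 ∨ (∃ k : Fin 11, p = (M ^ (k : ℕ)) (some 1)) ∨
      ∃ k : Fin 11, p = (M ^ (k : ℕ)) (some 5) := by decide +kernel
  intro p
  rcases h p with h | h | ⟨k, hk⟩ | ⟨k, hk⟩
  · exact Or.inl h
  · exact Or.inr (Or.inl h)
  · exact Or.inr (Or.inr (Or.inl ⟨k, hk⟩))
  · exact Or.inr (Or.inr (Or.inr ⟨k, hk⟩))

theorem M_sep (i j : ℕ) : (M ^ i) (some 1) ≠ (M ^ j) (some 5) := by
  have h : ∀ i j : Fin 11, (M ^ (i : ℕ)) (some 1) ≠ (M ^ (j : ℕ)) (some 5) := by decide +kernel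
  have hm : ∀ n : ℕ, M ^ n = M ^ (n % 11) := fun n => by
    conv_lhs => rw [← Nat.div_add_mod n 11, pow_add, pow_mul, M_pow, one_pow, one_mul]
  rw [hm i, hm j]
  exact h ⟨i % 11, Nat.mod_lt _ (by norm_num)⟩ ⟨j % 11, Nat.mod_lt _ (by norm_num)⟩

/-- a permutation commuting with `M` and fixing `none` and `some 0` has order dividing 22 -/
theorem pow_22 {c : Equiv.Perm GolayPt} (h1 : c none = none) (h2 : c (some 0) = some 0) (hc : Commute c M) :
    c ^ 22 = 1 := by
  have hcM : ∀ (k : ℕ) (p : GolayPt), c ((M ^ k) p) = (M ^ k) (c p) := fun k p => by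
    have := (hc.pow_right k).eq
    have h := congrArg (fun f : Equiv.Perm GolayPt => f p) this
    exact h
  have hpow : ∀ (n k : ℕ) (p : GolayPt), (c ^ n) ((M ^ k) p) = (M ^ k) ((c ^ n) p) := fun n k p => by
    have := (hc.pow_pow n k).eq
    exact congrArg (fun f : Equiv.Perm GolayPt => f p) this
  -- the image of a point of an orbit
  have hM11 : ∀ i : ℕ, M ^ (i * 11) = 1 := fun i => by rw [mul_comm, pow_mul, M_pow, one_pow]
  have hA : ∀ {p : GolayPt} {i : ℕ}, c p = (M ^ i) p → (c ^ 22) p = p := by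
    intro p i h
    have h3 : ∀ n : ℕ, (c ^ n) p = (M ^ (i * n)) p := by
      intro n
      induction n with
      | zero => simp
      | succ n ih =>
        rw [pow_succ', Equiv.Perm.mul_apply, ih, hcM, h, Nat.mul_succ, pow_add, Equiv.Perm.mul_apply]
    rw [h3, show i * 22 = (i * 2) * 11 by ring, hM11]
    rfl
  have hB : ∀ {p p' : GolayPt} {i j : ℕ}, c p = (M ^ i) p' → c p' = (M ^ j) p → (c ^ 22) p = p := by
    intro p p' i j h h'
    have h3 : (c ^ 2) p = (M ^ (i + j)) p := by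
      rw [pow_two, Equiv.Perm.mul_apply, h, hcM, h', pow_add, Equiv.Perm.mul_apply]
    have h4 : ∀ n : ℕ, ((c ^ 2) ^ n) p = (M ^ ((i + j) * n)) p := by
      intro n
      induction n with
      | zero => simp
      | succ n ih =>
        rw [pow_succ', Equiv.Perm.mul_apply, ih, hpow, h3, Nat.mul_succ, pow_add M ((i + j) * n),
          Equiv.Perm.mul_apply]
    rw [show (22 : ℕ) = 2 * 11 by norm_num, pow_mul, h4, hM11]
    rfl
  have hinv : ∀ (i : ℕ) (p : GolayPt), (M ^ (i * 10)) ((M ^ i) p) = p := by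
    intro i p
    rw [← Equiv.Perm.mul_apply, ← pow_add, show i * 10 + i = i * 11 by ring, hM11]
    rfl
  have key : (c ^ 22) (some 1) = some 1 ∧ (c ^ 22) (some 5) = some 5 := by
    have n1 : c (some 1) ≠ none := fun h => by
      rw [← h1] at h
      exact absurd (c.injective h) (by decide)
    have n1' : c (some 1) ≠ some 0 := fun h => by
      have h' : c (some 1) = c (some 0) := by rw [h, h2]
      exact absurd (c.injective h') (by decide)
    have n5 : c (some 5) ≠ none := fun h => by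
      rw [← h1] at h
      exact absurd (c.injective h) (by decide)
    have n5' : c (some 5) ≠ some 0 := fun h => by
      have h' : c (some 5) = c (some 0) := by rw [h, h2]
      exact absurd (c.injective h') (by decide)
    rcases M_orb (c (some 1)) with h | h | ⟨i, hi⟩ | ⟨i, hi⟩
    · exact absurd h n1
    · exact absurd h n1'
    · refine ⟨hA hi, ?_⟩
      rcases M_orb (c (some 5)) with h | h | ⟨j, hj⟩ | ⟨j, hj⟩
      · exact absurd h n5
      · exact absurd h n5'
      · exfalso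
        have h3 : c ((M ^ (j + i * 10)) (some 1)) = c (some 5) := by
          rw [hcM, hi, hj, pow_add, Equiv.Perm.mul_apply, hinv]
        exact M_sep _ 0 (by rw [c.injective h3]; rfl)
      · exact hA hj
    · rcases M_orb (c (some 5)) with h | h | ⟨j, hj⟩ | ⟨j, hj⟩
      · exact absurd h n5
      · exact absurd h n5'
      · exact ⟨hB hi hj, hB hj hi⟩
      · exfalso
        have h3 : c ((M ^ (j + i * 10)) (some 1)) = c (some 5) := by
          rw [hcM, hi, hj, pow_add, Equiv.Perm.mul_apply, hinv]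
        exact M_sep _ 0 (by rw [c.injective h3]; rfl)
  have hfix : ∀ n : ℕ, (c ^ n) none = none ∧ (c ^ n) (some 0) = some 0 := by
    intro n
    induction n with
    | zero => exact ⟨rfl, rfl⟩
    | succ n ih => rw [pow_succ', Equiv.Perm.mul_apply, Equiv.Perm.mul_apply, ih.1, ih.2]; exact ⟨h1, h2⟩
  apply Equiv.ext
  intro p
  rcases M_orb p with rfl | rfl | ⟨k, rfl⟩ | ⟨k, rfl⟩
  · exact (hfix 22).1
  · exact (hfix 22).2
  · rw [hpow, key.1]; rfl
  · rw [hpow, key.2]; rfl

theorem disc_m22 {L : Type*} [Group L] [IsSimpleGroup L] (h : Spor.IsoM22 L) : Disc L := by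
  have hcard := Cfsg.Agent.NotCT.Orders.m22 h
  obtain ⟨e⟩ := h
  rw [Nat.card_congr e.toEquiv] at hcard
  have hfin : Finite Spor.M22 := Nat.finite_of_card_ne_zero (by rw [hcard]; norm_num)
  refine disc_congr e.symm ?_
  have ho : orderOf (⟨M, M_mem22⟩ : Spor.M22) = 11 := orderOf_sub M_mem22 (by norm_num) M_pow M_ne
  have hs : IsSimpleGroup Spor.M22 := e.symm.isSimpleGroup
  have hna : Cfsg.Agent.H393.Iso.NA 11 Spor.M22 := Cfsg.Agent.H393.Iso.na_m22_of_card hcard
  refine disc_self (r := 11) hcard ho ?_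
  refine Cfsg.Agent.H547.SelfCent.card_of_primes (by norm_num) ho (by rw [hcard]; norm_num) hna ?_
  intro q hq hq2 hq11 g hg hgo
  have h1 : ((g : Equiv.Perm GolayPt)) ^ 22 = 1 := by
    refine pow_22 ?_ ?_ ?_
    · exact (MulAction.mem_stabilizer_iff.1 (Subgroup.mem_inf.1 (Subgroup.mem_inf.1 g.2).1).2)
    · exact (MulAction.mem_stabilizer_iff.1 (Subgroup.mem_inf.1 g.2).2)
    · exact congrArg Subtype.val hg
  have h2 : g ^ 22 = 1 := Subtype.ext h1
  have h3 : q ∣ 2 * 11 := by
    rw [← hgo]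
    exact orderOf_dvd_of_pow_eq_one h2
  rcases hq.dvd_mul.1 h3 with h4 | h4
  · exact hq2 ((Nat.prime_dvd_prime_iff_eq hq Nat.prime_two).1 h4)
  · exact hq11 ((Nat.prime_dvd_prime_iff_eq hq (by norm_num)).1 h4)

end Cfsg.Agent.H291.NR
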